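import Cfsg.Agent.CosetEnum.Suzuki.Main
import Cfsg.Agent.CosetEnum.Suzuki.StepD
import Cfsg.Agent.CosetEnum.Suzuki.StepE
import Cfsg.Agent.CosetEnum.Suzuki.SubChain

/-! The index of the subgroup generated by a, b, c, d, f, g in the presented Suzuki group. -/

namespace Cfsg.Agent.CosetEnum.Suzuki

open Cfsg.Agent.CosetCert

/-- The index is 22880. -/
theorem index_abcdfg :
    ((Subgroup.closure ({Cfsg.Spor.Suz.a, Cfsg.Spor.Suz.b, Cfsg.Spor.Suz.c, Cfsg.Spor.Suz.d,
        Cfsg.Spor.Suz.f, Cfsg.Spor.Suz.g} : Set (FreeGroup Cfsg.Spor.Suz.Gen))).map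
      (PresentedGroup.mk (Cfsg.Spor.coxRelators Cfsg.Spor.Suz.edges ∪ {r | r ∈ Cfsg.Spor.Suz.extra}))).index =
      22880 := by
  classical
  obtain ⟨g0, ginv, grel⟩ := presented_letters SuzukiG.valid
  set g : ℕ → Cfsg.Spor.Suz := SuzukiG.data.act PresentedGroup.of with hg
  have hc := bound_base stepC_valid g g0 ginv
    (fun u hu => grel u ((by decide +kernel : ∀ u ∈ stepC.words, u ∈ SuzukiG.data.words) u hu)) rfl
  have he := bound_step stepE_valid g g0 ginv
    (fun u hu => grel u ((by decide +kernel : ∀ u ∈ stepE.words, u ∈ SuzukiG.data.words) u hu))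
    stepC.letters (by decide +kernel) hc
  have hd := bound_step stepD_valid g g0 ginv
    (fun u hu => grel u ((by decide +kernel : ∀ u ∈ stepD.words, u ∈ SuzukiG.data.words) u hu))
    stepE.letters (by decide +kernel) he
  have hset : ((Subgroup.closure ({Cfsg.Spor.Suz.a, Cfsg.Spor.Suz.b, Cfsg.Spor.Suz.c, Cfsg.Spor.Suz.d,
        Cfsg.Spor.Suz.f, Cfsg.Spor.Suz.g} : Set (FreeGroup Cfsg.Spor.Suz.Gen))).map
      (PresentedGroup.mk (Cfsg.Spor.coxRelators Cfsg.Spor.Suz.edges ∪ {r | r ∈ Cfsg.Spor.Suz.extra}))) =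
      Subgroup.closure (g '' {l | l ∈ stepD.letters}) := by
    rw [MonoidHom.map_closure]
    congr 1
    have hl : {l | l ∈ stepD.letters} = ({1, 2, 3, 4, 6, 7} : Set ℕ) := by
      ext l
      simp [stepD]
    rw [hl]
    simp only [Set.image_insert_eq, Set.image_singleton]
    rfl
  rw [hset]
  set H := Subgroup.closure (g '' {l | l ∈ stepD.letters})
  obtain ⟨-, hcard, -, φ, hinj, hof⟩ := simple_of_cert (M := 416 * (280 * 2160)) SuzukiG.valid
    SuzukiG.word_letters SuzukiG.base_letters simpleData subgroup_bound chain_valid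
    (by decide +kernel) (by decide +kernel) intervals_valid (by decide +kernel) (by decide +kernel)
    (by decide +kernel) (by decide +kernel) (by decide +kernel) (by decide +kernel) (by decide +kernel)
    points_ok
  have hlow : chainProd subLevels ≤ Nat.card (H.map φ) := by
    refine chainProd_le_card SuzukiG.data.look _ (fun l => φ (g l)) ?_ _ ?_ _ sub_chain
    · intro l hl i
      have hl' : 1 ≤ l ∧ l ≤ SuzukiG.data.cols.length :=
        (by decide +kernel : ∀ l ∈ [1, 2, 3, 4, 6, 7], 1 ≤ l ∧ l ≤ SuzukiG.data.cols.length) l hl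
      show (φ (SuzukiG.data.act PresentedGroup.of l) i : ℕ) = _
      rw [SuzukiG.data.map_act]
      have : (φ ∘ PresentedGroup.of) = PresData.genPerm SuzukiG.valid := funext hof
      rw [this, PresData.act_genPerm SuzukiG.valid hl'.1 hl'.2,
        PresData.perm_apply SuzukiG.valid hl'.1 hl'.2]
    · intro l hl
      exact ⟨g l, Subgroup.subset_closure ⟨l, hl, rfl⟩, rfl⟩
  rw [Subgroup.card_map_of_injective hinj] at hlow
  have e1 : chainProd subLevels = 19595520 := by decide +kernel
  have e2 : stepD.N * (stepE.N * stepC.N) = 19595520 := by decide +kernel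
  have hH : Nat.card H = 19595520 := le_antisymm (e2 ▸ hd.2) (e1 ▸ hlow)
  have h := H.card_mul_index
  have e3 : Nat.card Cfsg.Spor.Suz = 1782 * (416 * (280 * 2160)) :=
    hcard.trans (by decide +kernel)
  rw [hH, e3] at h
  omega

end Cfsg.Agent.CosetEnum.Suzuki
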